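import Cfsg.Agent.Lib.ToddCox.L37T.Tab
set_option autoImplicit false
set_option maxRecDepth 100000
namespace Cfsg.Agent.Lib.ToddCox.L37T
theorem a0 : allBits chkAll 10 0 = true := by decide +kernel
theorem bk0 : allBits (fun i => bif (and (Nat.ble 0 i) (Nat.blt i 1)) then chkBlockPt tab Sw 0 1 i (pr i) else true) 6 0 = true := by decide +kernel
theorem bk1 : allBits (fun i => bif (and (Nat.ble 1 i) (Nat.blt i 57)) then chkBlockPt tab Sw 1 57 i (pr i) else true) 6 0 = true := by decide +kernel
end Cfsg.Agent.Lib.ToddCox.L37T
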