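import Cfsg.Agent.Lib.ToddCox.Rep
set_option autoImplicit false
set_option maxRecDepth 100000
namespace Cfsg.Agent.Lib.ToddCox.L37T
def T_0 : ℕ := 0x30000dc002f000d00035000b80023000840038000d80033000b400280009c001f00090002c000ac0026000580029000c8001e000c4000f000a800220004c00150006c001800050001a0004800250007000190007400170001c001000080000e00020000b00030000a00010000d000440003000140009000180001000080000
def T_1 : ℕ := 0x2800098002a0008c003200088003400080002c0007c001e0006c0030000640036000900038000500037000540029000d400330003c0031000bc002e0004c0016000b40018000ac001a0005c001c00094002700074001200024000a00084000e00034000c0002c00100004400080001000020001400070000400060000c0000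
def T_2 : ℕ := 0x35000d00036000e000370008400260009c002f000c0002d000b8001f000ac002a000900023000c40032000440029000a0000f000cc0014000b0001b0004c001000078001800064001a0002c000a00024002000074000800094001c00088000e0003400050005c00160005400120000c00060003000010001c0002000100000
def T_3 : ℕ := 0x36000d40038000dc0030000cc0032000b40034000bc002b000c4002a000b8002c000a400260008400280004400180007c00190009c00200008c000f0003800150005000130008800240005c000a00070001b00068000b00094001000078001d00014000800048001600010000c0000c00060003400090001c0001000080000
def T_4 : ℕ := 0x2b000b4002e000c40021000bc0020000d40027000cc0036000dc0019000e000220005c0014000c0001b0009400120003c002a000d0003200078001f00034001500098000c000b0000b000a400160007000280002000240004400100008c000500074001a00060000a0001000130001c00060003800090000c0001000080000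
def T_5 : ℕ := 0x36000d40038000dc0030000cc0029000c40034000bc002e000b40024000ac0018000c8001a0009c001300070002c00074001200084001700038000d0008c00250003000280002c002a00080000900044000800098002200054000600014001f00078001b0006400040005800140000800100003c000a0000400070000c0000
def T_6 : ℕ := 0x2c000a800230009800320009c0034000ac001f000a0002e000840038000c400370006c002f000cc003500094000f000d8001d000b40018000c0000e00088000c000a400190006800200005400160005c001300050001000044001200090001e00024001c00010000a0003400020001c000600004000b0000c0008000140000
def T_7 : ℕ := 0x320002c0036000440031000cc0038000d000130006c002600068002c0003400060005800050003c002e00048001700074001f0001c00080008800030008c0015000bc002d000380018000900029000700014000c00025000d400040009c0019000ac000c000dc000a00024002000084002a000a00010000780002000000001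
end Cfsg.Agent.Lib.ToddCox.L37T
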